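import Mathlib
import Cfsg.Agent.Lib.Helper36.AltEven
import Cfsg.Agent.Lib.Helper57.TSO.Defs

/-!
# TSO [PAR]: an orthogonal matrix of odd order has `rank (B - 1)` even.
-/

set_option autoImplicit false

namespace Cfsg.Agent.Lib.Helper96.TSO

open Matrix

universe u

/-- For odd `r`, `B + 1` divides `B ^ r + 1` (as matrices): there is `C` with
`(B + 1) * C = B ^ r + 1`. -/
theorem tso_add_one_mul_eq {F : Type u} [Field F] {n : ℕ} (B : Matrix (Fin n) (Fin n) F)
    {r : ℕ} (hr : Odd r) : ∃ C : Matrix (Fin n) (Fin n) F, (B + 1) * C = B ^ r + 1 := by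
  have h : (Polynomial.X + 1 : Polynomial F) ∣ Polynomial.X ^ r + 1 ^ r :=
    Odd.add_dvd_pow_add_pow _ _ hr
  obtain ⟨g, hg⟩ := h
  refine ⟨Polynomial.aeval B g, ?_⟩
  have := congrArg (Polynomial.aeval B) hg
  simpa using this.symm

theorem pkgPar : Cfsg.Agent.Lib.Helper57.TSO.PkgPar.{u} := by
  intro F _ h2 n S B hS hSdet hB r hr hBr
  classical
  -- B is invertible
  have hBdet : IsUnit B.det := by
    have : B.det ^ r = 1 := by rw [← Matrix.det_pow, hBr, Matrix.det_one]
    exact IsUnit.of_pow_eq_one this (by rcases hr with ⟨k, rfl⟩; omega)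
  -- B + 1 is invertible
  have hB1det : IsUnit (B + 1).det := by
    obtain ⟨C, hC⟩ := tso_add_one_mul_eq B hr
    rw [hBr] at hC
    have h11 : (1 : Matrix (Fin n) (Fin n) F) + 1 = (2 : F) • (1 : Matrix (Fin n) (Fin n) F) := by
      rw [two_smul]
    have : (B + 1).det * C.det = (2 : F) ^ (Fintype.card (Fin n)) := by
      rw [← Matrix.det_mul, hC, h11, Matrix.det_smul, Matrix.det_one, mul_one]
    exact IsUnit.of_mul_eq_one ((C.det) * ((2 : F) ^ (Fintype.card (Fin n)))⁻¹) (by
      rw [← mul_assoc, this, mul_inv_cancel₀ (pow_ne_zero _ h2)])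
  have hSdet' : IsUnit S.det := isUnit_iff_ne_zero.mpr hSdet
  -- the alternating matrix
  set K : Matrix (Fin n) (Fin n) F := S * B - Bᵀ * S with hK
  have halt : ∀ v : Fin n → F, v ⬝ᵥ K.mulVec v = 0 := by
    intro v
    rw [hK, Matrix.sub_mulVec, dotProduct_sub, sub_eq_zero]
    rw [← Matrix.mulVec_mulVec, ← Matrix.mulVec_mulVec]
    rw [Matrix.dotProduct_mulVec v Bᵀ, Matrix.vecMul_transpose]
    rw [Matrix.dotProduct_mulVec v S, dotProduct_comm (B *ᵥ v)]
    congr 1
    rw [← Matrix.mulVec_transpose, hS]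
  have hEven : Even K.rank := Cfsg.Agent.Lib.Helper36.even_rank_of_alt K halt
  -- K * B = S (B + 1) (B - 1)
  have hKB : K * B = (S * (B + 1)) * (B - 1) := by
    have e1 : (S * (B + 1)) * (B - 1) = S * B * B - S := by
      noncomm_ring
    rw [e1, hK, Matrix.sub_mul, hB]
  have hSB1 : IsUnit (S * (B + 1)).det := by
    rw [Matrix.det_mul]
    exact hSdet'.mul hB1det
  have h1 : (K * B).rank = K.rank := Matrix.rank_mul_eq_left_of_isUnit_det B K hBdet
  have h2' : ((S * (B + 1)) * (B - 1)).rank = (B - 1).rank :=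
    Matrix.rank_mul_eq_right_of_isUnit_det (S * (B + 1)) (B - 1) hSB1
  rw [← h2', ← hKB, h1]
  exact hEven

end Cfsg.Agent.Lib.Helper96.TSO
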