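import Mathlib
import Cfsg.Agent.Lib.Helper94.Symp
import Cfsg.Agent.Lib.Helper40.SympOrder
import Cfsg.Agent.Lib.Helper57.TSO.Defs

/-!
# TSO [WITR]: an element of order `r` of `Sp_{2d}(F)` supported on a `2s`-dimensional block.
-/

set_option autoImplicit false

namespace Cfsg.Agent.Lib.Helper96.TSO

open Matrix Cfsg
open Cfsg.Agent.Lib.Helper40

universe u

section ext

variable {F : Type u} [Field F] (k : ℕ)

theorem witr_sympExt_mul (A B : Matrix (Fin k ⊕ Fin k) (Fin k ⊕ Fin k) F) :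
    sympExt k (A * B) = sympExt k A * sympExt k B := by
  unfold sympExt
  rw [Matrix.submatrix_mul_equiv, Matrix.fromBlocks_multiply]
  simp

theorem witr_sympExt_one : sympExt k (1 : Matrix (Fin k ⊕ Fin k) (Fin k ⊕ Fin k) F) = 1 := by
  unfold sympExt
  rw [Matrix.fromBlocks_one, Matrix.submatrix_one_equiv]

theorem witr_sympExt_pow (A : Matrix (Fin k ⊕ Fin k) (Fin k ⊕ Fin k) F) (n : ℕ) :
    sympExt k (A ^ n) = sympExt k A ^ n := by
  induction n with
  | zero => rw [pow_zero, pow_zero, witr_sympExt_one]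
  | succ n ih => rw [pow_succ, pow_succ, witr_sympExt_mul, ih]

theorem witr_sympExt_inj (A : Matrix (Fin k ⊕ Fin k) (Fin k ⊕ Fin k) F)
    (h : sympExt k A = 1) : A = 1 := by
  have h2 : (sympExt k A).submatrix (sympIdx k) (sympIdx k)
      = (1 : Matrix (Fin (k + 1) ⊕ Fin (k + 1)) (Fin (k + 1) ⊕ Fin (k + 1)) F).submatrix
          (sympIdx k) (sympIdx k) := by rw [h]
  have h3 : (1 : Matrix ((Fin k ⊕ Fin k) ⊕ (Fin 1 ⊕ Fin 1)) ((Fin k ⊕ Fin k) ⊕ (Fin 1 ⊕ Fin 1)) F)
      = Matrix.fromBlocks (1 : Matrix (Fin k ⊕ Fin k) (Fin k ⊕ Fin k) F) 0 0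
          (1 : Matrix (Fin 1 ⊕ Fin 1) (Fin 1 ⊕ Fin 1) F) := Matrix.fromBlocks_one.symm
  rw [sympExt_submatrix, Matrix.submatrix_one_equiv, h3, Matrix.fromBlocks_inj] at h2
  exact h2.1

theorem witr_rank_fromBlocks {n m : Type} [Fintype n] [Fintype m] [DecidableEq n] [DecidableEq m]
    (N : Matrix n n F) :
    (Matrix.fromBlocks N (0 : Matrix n m F) (0 : Matrix m n F) (0 : Matrix m m F)).rank
      ≤ N.rank := by
  have h : Matrix.fromBlocks N (0 : Matrix n m F) (0 : Matrix m n F) (0 : Matrix m m F)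
      = Matrix.fromRows (1 : Matrix n n F) (0 : Matrix m n F) * N
          * Matrix.fromCols (1 : Matrix n n F) (0 : Matrix n m F) := by
    rw [Matrix.fromRows_mul, Matrix.fromRows_mul_fromCols]
    simp
  rw [h]
  exact (Matrix.rank_mul_le_left _ _).trans (Matrix.rank_mul_le_right _ _)

theorem witr_sympExt_rank (A : Matrix (Fin k ⊕ Fin k) (Fin k ⊕ Fin k) F) :
    (sympExt k A - 1).rank ≤ (A - 1).rank := by
  have h : sympExt k A - 1
      = (Matrix.fromBlocks (A - 1) (0 : Matrix (Fin k ⊕ Fin k) (Fin 1 ⊕ Fin 1) F)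
          (0 : Matrix (Fin 1 ⊕ Fin 1) (Fin k ⊕ Fin k) F)
          (0 : Matrix (Fin 1 ⊕ Fin 1) (Fin 1 ⊕ Fin 1) F)).submatrix
            (sympIdx k).symm (sympIdx k).symm := by
    have h1 : (1 : Matrix (Fin (k + 1) ⊕ Fin (k + 1)) (Fin (k + 1) ⊕ Fin (k + 1)) F)
        = (Matrix.fromBlocks (1 : Matrix (Fin k ⊕ Fin k) (Fin k ⊕ Fin k) F) 0 0
            (1 : Matrix (Fin 1 ⊕ Fin 1) (Fin 1 ⊕ Fin 1) F)).submatrix
            (sympIdx k).symm (sympIdx k).symm := by
      rw [Matrix.fromBlocks_one, Matrix.submatrix_one_equiv]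
    have h2 : Matrix.fromBlocks (A - 1) (0 : Matrix (Fin k ⊕ Fin k) (Fin 1 ⊕ Fin 1) F)
          (0 : Matrix (Fin 1 ⊕ Fin 1) (Fin k ⊕ Fin k) F)
          (0 : Matrix (Fin 1 ⊕ Fin 1) (Fin 1 ⊕ Fin 1) F)
        = Matrix.fromBlocks A 0 0 1 - Matrix.fromBlocks 1 0 0 1 := by
      ext (i | i) (j | j) <;>
        simp only [Matrix.sub_apply, Matrix.fromBlocks_apply₁₁, Matrix.fromBlocks_apply₁₂,
          Matrix.fromBlocks_apply₂₁, Matrix.fromBlocks_apply₂₂, Matrix.zero_apply,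
          sub_self]
    unfold sympExt
    rw [h2]
    conv_lhs => rw [h1]
    ext i j
    rfl
  rw [h, Matrix.rank_submatrix]
  exact witr_rank_fromBlocks _

theorem witr_aux (r s : ℕ) (y : Matrix (Fin s ⊕ Fin s) (Fin s ⊕ Fin s) F)
    (hy : y ∈ symplecticGroup (Fin s) F) (hyr : y ^ r = 1) (hy1 : y ≠ 1) :
    ∀ j : ℕ, ∃ x : Matrix (Fin (s + j) ⊕ Fin (s + j)) (Fin (s + j) ⊕ Fin (s + j)) F,
      x ∈ symplecticGroup (Fin (s + j)) F ∧ x ^ r = 1 ∧ x ≠ 1 ∧ (x - 1).rank ≤ 2 * s := by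
  intro j
  induction j with
  | zero =>
    refine ⟨y, hy, hyr, hy1, ?_⟩
    refine (Matrix.rank_le_card_width _).trans ?_
    simp [two_mul]
  | succ j ih =>
    obtain ⟨x, hx, hxr, hx1, hrk⟩ := ih
    refine ⟨sympExt (s + j) x, sympExt_mem (s + j) x hx, ?_, ?_, ?_⟩
    · rw [← witr_sympExt_pow, hxr, witr_sympExt_one]
    · intro h
      exact hx1 (witr_sympExt_inj (s + j) x h)
    · exact (witr_sympExt_rank (s + j) x).trans hrk

end ext

theorem pkgWitR : Cfsg.Agent.Lib.Helper57.TSO.PkgWitR.{u} := by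
  intro F _ _ p _ _ q hq d r _ hr2 hrp s hs hsd hdvd
  classical
  have hrprime : r.Prime := Fact.out
  -- r divides the order of Sp_{2s}(F)
  have hcard : r ∣ Nat.card (symplecticGroup (Fin s) F) := by
    rw [card_symplecticGroup, hq]
    apply Dvd.dvd.mul_left
    have hmem : s - 1 ∈ Finset.range s := Finset.mem_range.mpr (by omega)
    have h1 := Finset.dvd_prod_of_mem (fun i => q ^ (2 * (i + 1)) - 1) hmem
    have h2 : s - 1 + 1 = s := by omega
    simp only [h2] at h1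
    exact hdvd.trans h1
  obtain ⟨y, hy⟩ := exists_prime_orderOf_dvd_card' r hcard
  have hyr : (y : Matrix (Fin s ⊕ Fin s) (Fin s ⊕ Fin s) F) ^ r = 1 := by
    have h1 : y ^ r = 1 := by rw [← hy]; exact pow_orderOf_eq_one y
    have h2 := congrArg (fun g : symplecticGroup (Fin s) F =>
      (g : Matrix (Fin s ⊕ Fin s) (Fin s ⊕ Fin s) F)) h1
    simpa using h2
  have hy1 : (y : Matrix (Fin s ⊕ Fin s) (Fin s ⊕ Fin s) F) ≠ 1 := by
    intro h
    have : y = 1 := Subtype.ext h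
    rw [this, orderOf_one] at hy
    exact hrprime.one_lt.ne hy
  obtain ⟨j, rfl⟩ := Nat.exists_eq_add_of_le hsd
  obtain ⟨x, hx, hxr, hx1, hrk⟩ := witr_aux r s _ y.2 hyr hy1 j
  have hform := fun u v => Cfsg.Agent.Lib.Helper13.sympForm_mulVec_of_mem _ hx u v
  refine ⟨Matrix.GeneralLinearGroup.mk'' x (SymplecticGroup.symplectic_det hx), ?_, ?_, ?_, ?_⟩
  · rw [Cfsg.Agent.Lib.Helper94.mem_spGL_iff]
    intro u v
    exact hform u v
  · exact hxr
  · intro z hz
    change x = z • 1 at hz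
    -- z ^ 2 = 1
    set i0 : Fin (s + j) := ⟨0, by omega⟩ with hi0
    have hsf : sympForm (s + j) F (Pi.single (Sum.inr i0) 1) (Pi.single (Sum.inl i0) 1) = 1 := by
      rw [Cfsg.Agent.Lib.Helper94.sf_eq]
      rw [Finset.sum_eq_single i0]
      · simp
      · intro b _ hb
        simp [hb]
      · intro h; exact absurd (Finset.mem_univ _) h
    have hz2 : z * z = 1 := by
      have h1 := hform (Pi.single (Sum.inr i0) 1) (Pi.single (Sum.inl i0) 1)
      rw [hz, Matrix.smul_mulVec, Matrix.smul_mulVec, Matrix.one_mulVec, Matrix.one_mulVec,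
        Cfsg.Agent.Lib.Helper94.sf_smul_left, Cfsg.Agent.Lib.Helper94.sf_smul_right, hsf] at h1
      simpa using h1
    have hzr : z ^ r = 1 := by
      have h1 := hxr
      rw [hz, smul_pow, one_pow] at h1
      have h2 := congrFun (congrFun h1 (Sum.inl i0)) (Sum.inl i0)
      simpa using h2
    have hodd : Odd r := hrprime.odd_of_ne_two hr2
    obtain ⟨m, rfl⟩ := hodd
    have hz1 : z = 1 := by
      have : z ^ (2 * m + 1) = z := by
        rw [pow_succ, pow_mul, pow_two, hz2, one_pow, one_mul]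
      rw [this] at hzr
      exact hzr
    rw [hz1, one_smul] at hz
    exact hx1 hz
  · exact hrk

end Cfsg.Agent.Lib.Helper96.TSO
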