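import Mathlib
import Cfsg.Agent.Lib.Helper94.Symp
import Cfsg.Agent.Lib.Helper57.TSO.Defs

/-!
# TSO [WITT]: a transvection in `Sp_{2d}(F)`.
-/

set_option autoImplicit false

namespace Cfsg.Agent.Lib.Helper96.TSO

open Matrix Cfsg
open Cfsg.Agent.Lib.Helper94

universe u

theorem pkgWitT : Cfsg.Agent.Lib.Helper57.TSO.PkgWitT.{u} := by
  intro F _ _ p _ _ d hd
  classical
  set i0 : Fin d := ⟨0, hd⟩ with hi0
  set a : Fin d ⊕ Fin d → F := Pi.single (Sum.inl i0) 1 with ha
  set x : GL (Fin d ⊕ Fin d) F := sympTransGL d a 1 with hx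
  have hmv : ∀ v : Fin d ⊕ Fin d → F,
      (x : Matrix (Fin d ⊕ Fin d) (Fin d ⊕ Fin d) F) *ᵥ v = v + sympForm d F v a • a := by
    intro v
    rw [hx, sympTransGL_mulVec, one_mul]
  have hpow : ∀ (k : ℕ) (v : Fin d ⊕ Fin d → F),
      ((x : Matrix (Fin d ⊕ Fin d) (Fin d ⊕ Fin d) F) ^ k) *ᵥ v
        = v + ((k : F) * sympForm d F v a) • a := by
    intro k
    induction k with
    | zero => intro v; simp
    | succ k ih =>
      intro v
      rw [pow_succ', ← Matrix.mulVec_mulVec, ih, hmv, sf_add_left, sf_smul_left, sf_self]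
      push_cast
      module
  refine ⟨x, sympTransGL_mem d a 1, ?_, ?_, ?_⟩
  · apply Matrix.mulVec_injective
    funext v
    rw [hpow, CharP.cast_eq_zero F p, zero_mul, zero_smul, add_zero, Matrix.one_mulVec]
  · intro z hz
    have h1 := hmv (Pi.single (Sum.inr i0) 1)
    rw [hz, Matrix.smul_mulVec, Matrix.one_mulVec] at h1
    have h2 := congrFun h1 (Sum.inl i0)
    have hsf : sympForm d F (Pi.single (Sum.inr i0) 1) a = 1 := by
      rw [sf_eq, ha]
      rw [Finset.sum_eq_single i0]
      · simp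
      · intro b _ hb
        simp [hb]
      · intro h; exact absurd (Finset.mem_univ _) h
    rw [hsf, ha] at h2
    simp at h2
  · have : (x : Matrix (Fin d ⊕ Fin d) (Fin d ⊕ Fin d) F) - 1
        = Matrix.vecMulVec a (fun j => sympForm d F (Pi.single j 1) a) := by
      apply Matrix.ext_of_mulVec_single
      intro j
      rw [Matrix.sub_mulVec, hmv, Matrix.one_mulVec, add_sub_cancel_left]
      funext i
      simp [Matrix.mulVec_single, Matrix.vecMulVec_apply, mul_comm]
    rw [this]
    exact Matrix.rank_vecMulVec_le _ _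

end Cfsg.Agent.Lib.Helper96.TSO
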